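import Cfsg.Agent.Lib.Mult.Fi24E
import Cfsg.Agent.Lib.Mult.Fi24Z

/-! # The Schur multiplier of `Fi₂₄′`: the lower bound (generated) -/

set_option autoImplicit false
set_option maxRecDepth 100000
set_option Elab.async false

namespace Cfsg.Lib.Mult.Fi24

open Cfsg.Lib.Calc Cfsg.Lib.Calc.Fi24 Subgroup

attribute [local instance] act

theorem κ_one {c : ℕ} (h : D c = 0) (h' : gam c = 1) : κ c = 1 := (rs c).eq (h ▸ Tw.rs_one) h'

/-- All equations. -/
def es : List (List ℕ × List ℕ) := ([0], []) :: ([0, 0], []) :: (e0 ++ (e1 ++ (e2 ++ e3)))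

theorem es_ok : ∀ p ∈ es, (p.1.map κ).prod = (p.2.map κ).prod := by
  have h := κ_one rfl isLab.zero
  exact List.forall_mem_cons.2 ⟨by simp [h], List.forall_mem_cons.2 ⟨by simp [h], List.forall_mem_append.2
    ⟨e0_ok, List.forall_mem_append.2 ⟨e1_ok, List.forall_mem_append.2 ⟨e2_ok, e3_ok⟩⟩⟩⟩⟩

theorem lab : Lab κ iv :=
  lab_of_eqs (K := 13) es_ok (fun _ h => κ_one (D_eq h) (invTab.one isLab h)) (by decide) (by decide +kernel)

theorem perfect : commutator sgn.ker = ⊤ := by
  have := simple_ker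
  refine (Normal.eq_bot_or_eq_top inferInstance).resolve_left fun e => ?_
  have := commutator_mem_commutator (mem_top (⟨_, ev_mem_ker (t := wd [12, 11]) (by decide +kernel)⟩ : sgn.ker))
    (mem_top (⟨_, ev_mem_ker (t := wd [1, 11]) (by decide +kernel)⟩ : sgn.ker))
  rw [← commutator_def, e, mem_bot, Subtype.ext_iff] at this
  exact ne_one (commW (wd [12, 11]) (wd [1, 11])) 0 (by decide +kernel) this

theorem exists_phi : ∃ φ : Spor.Fi24 →* Tw sgn (Fin 306936) ⧸ Tw.cst.range, ∀ c, φ (gam c) = κ c := by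
  let π := QuotientGroup.mk' (Tw.cst : _ →* Tw sgn (Fin 306936)).range
  exact data.exists_hom (lab.map π) (rels_of_all (fun _ => ev_eq_one_of_triv (lab.map π)
    (known := .pow (wd zw0) 17 :: eqRels es) (List.forall_mem_cons.2 ⟨by
      rw [← W.map_ev, W.ev, ev_wd _ lab.zero, z_eq]
      exact (QuotientGroup.eq_one_iff _).2 ⟨_, rfl⟩, fun t ht => by
        rw [← W.map_ev, rels_of_eqs lab.zero es_ok t ht, map_one]⟩)) (by decide +kernel))

/-- The long relator as a product of involutions. -/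
def prs : List (ℕ × ℕ) := [(4, 11), (11, 3), (2, 11), (11, 1), (12, 9), (9, 11), (4, 11), (11, 5), (6, 11), (11, 7),
  (10, 11), (11, 4), (8, 11), (11, 9)]

theorem prs_sq : ∀ t ∈ prs.map fun p => W.pow (.mul (.l p.1) (.l p.2)) 2, t.ev κ = 1 :=
  rels_of_all (fun _ => ev_eq_one_of_triv lab (known := (eqRels es).flatMap fun t => [t, .inv t]) fun t ht => by
    obtain ⟨u, hu, ht⟩ := List.mem_flatMap.1 ht
    have := rels_of_eqs lab.zero es_ok u hu
    rcases List.mem_pair.1 ht with rfl | rfl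
    exacts [this, by rw [W.ev, this, inv_one]]) (by decide +kernel)

theorem prs_prod : (prs.map fun p => κ p.1 * κ p.2).prod = (zw0.map κ).prod := by
  rw [← ev_wd _ lab.zero, ← lab.ev_eq (by decide +kernel :
    W.feq iv (wd (prs.flatMap fun p => [p.1, p.2])) (wd zw0) = true), ev_wd _ lab.zero]
  generalize κ = f
  simp [prs, mul_assoc]

theorem lb : Lb sgn.ker (Multiplicative (ZMod 3)) :=
  let ⟨φ, hφ⟩ := exists_phi
  Tw.lb (κ := κ) (closure_range_eq_top (γ := gam) genW_top) φ hφ perfect (l := prs)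
    (fun p hp => ⟨prs_sq _ (List.mem_map_of_mem hp), ev_mem_ker (t := .mul (.l p.1) (.l p.2)) (of_decide_eq_true
      (List.all_eq_true.1 (by decide +kernel : (prs.all fun p => decide ((W.mul (.l p.1) (.l p.2)).ev sg = 1)) = true)
        p hp))⟩) (m := 17) (a := 2) (by decide) (by rw [prs_prod, z_eq])

end Cfsg.Lib.Mult.Fi24
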