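import Cfsg.Agent.Lib.Mult.Fi24D

/-! # The Schur multiplier of `Fi₂₄′`: relations of the cover (generated) -/

set_option autoImplicit false
set_option maxRecDepth 100000
set_option maxHeartbeats 0
set_option Elab.async false

namespace Cfsg.Lib.Mult.Fi24

open Cfsg.Lib.Calc Cfsg.Lib.Calc.Fi24 Subgroup

attribute [local instance] act

/-- Equations. -/
def e0 : List (List ℕ × List ℕ) := [([1, 1], []), ([2, 2], []), ([3, 3], []), ([4, 4], []), ([5, 5], []), ([6, 6], []), ([7, 7], []), ([8, 8], []), ([9, 9], []), ([1, 2, 1], [2, 1, 2]), ([1, 3], [3, 1]), ([1, 4], [4, 1]), ([1, 5], [5, 1]), ([1, 6], [6, 1]), ([1, 7], [7, 1]), ([1, 8], [8, 1]), ([1, 9], [9, 1]), ([2, 3, 2], [3, 2, 3]), ([2, 4], [4, 2]), ([2, 5], [5, 2]), ([2, 6], [6, 2]), ([2, 7], [7, 2]), ([2, 8], [8, 2]), ([2, 9], [9, 2])]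

theorem e0_ok : ∀ p ∈ e0, (p.1.map κ).prod = (p.2.map κ).prod := eqs_of (by decide +kernel) (by decide +kernel)

/-- Equations. -/
def e1 : List (List ℕ × List ℕ) := [([3, 4, 3], [4, 3, 4]), ([3, 5], [5, 3]), ([3, 6], [6, 3]), ([3, 7], [7, 3]), ([3, 8], [8, 3]), ([3, 9], [9, 3]), ([4, 5, 4], [5, 4, 5]), ([4, 6], [6, 4]), ([4, 7], [7, 4]), ([4, 8, 4], [8, 4, 8]), ([4, 9], [9, 4]), ([5, 6, 5], [6, 5, 6]), ([5, 7], [7, 5]), ([5, 8], [8, 5]), ([5, 9], [9, 5]), ([6, 7, 6], [7, 6, 7]), ([6, 8], [8, 6]), ([6, 9], [9, 6]), ([7, 8], [8, 7]), ([7, 9], [9, 7]), ([8, 9, 8], [9, 8, 9])]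

theorem e1_ok : ∀ p ∈ e1, (p.1.map κ).prod = (p.2.map κ).prod := eqs_of (by decide +kernel) (by decide +kernel)

/-- Equations. -/
def e2 : List (List ℕ × List ℕ) := [([10, 10], []), ([11, 11], []), ([12, 12], []), ([1, 10], [10, 1]), ([1, 11], [11, 1]), ([1, 12, 1], [12, 1, 12]), ([2, 10], [10, 2]), ([2, 11], [11, 2]), ([2, 12], [12, 2]), ([3, 10], [10, 3]), ([3, 11], [11, 3]), ([3, 12], [12, 3]), ([4, 10], [10, 4]), ([4, 11], [11, 4]), ([4, 12], [12, 4]), ([5, 10], [10, 5]), ([5, 11], [11, 5]), ([5, 12], [12, 5]), ([6, 10], [10, 6]), ([6, 11], [11, 6]), ([6, 12], [12, 6]), ([7, 10, 7], [10, 7, 10]), ([7, 11], [11, 7]), ([7, 12], [12, 7]), ([8, 10], [10, 8]), ([8, 11], [11, 8]), ([8, 12], [12, 8]), ([9, 10], [10, 9]), ([9, 11], [11, 9]), ([9, 12], [12, 9]), ([10, 11], [11, 10]), ([10, 12], [12, 10]), ([11, 12, 11], [12, 11, 12])]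

theorem e2_ok : ∀ p ∈ e2, (p.1.map κ).prod = (p.2.map κ).prod := eqs_of (by decide +kernel) (by decide +kernel)

/-- Equations. -/
def e3 : List (List ℕ × List ℕ) := [([11], [1, 2, 3, 4, 5, 6, 8, 1, 2, 3, 4, 5, 6, 8, 1, 2, 3, 4, 5, 6, 8, 1, 2, 3, 4, 5, 6, 8, 1, 2, 3, 4, 5, 6, 8, 1, 2, 3, 4, 5, 6, 8, 1, 2, 3, 4, 5, 6, 8, 1, 2, 3, 4, 5, 6, 8, 1, 2, 3, 4, 5, 6, 8])]

theorem e3_ok : ∀ p ∈ e3, (p.1.map κ).prod = (p.2.map κ).prod := eqs_of (by decide +kernel) (by decide +kernel)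

end Cfsg.Lib.Mult.Fi24
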