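import Cfsg.Agent.Lib.Mult.PtW
import Cfsg.Agent.Lib.Calc.Fi24S

/-! # The Schur multiplier of `Fi₂₄′`: the model (generated) -/

set_option autoImplicit false
set_option maxRecDepth 100000
set_option maxHeartbeats 0
set_option Elab.async false

namespace Cfsg.Lib.Mult.Fi24

open Cfsg.Lib.Calc Cfsg.Lib.Calc.Fi24

attribute [local instance] act

/-- The base. -/
def bs : ℕ := (nat_lit 0x1d97a03b2ff89965a0b625a3169487e43a13f55331decc7acc540000b800000)

theorem pm (ws : List (List ℕ)) (n : ℕ) : PM (fun l => ((nthL ([] :: ws) l).map gam).prod⁻¹) n (vP ptab) ptab.s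
    (fun i => finPt 306936 (i / ptab.s)) (tw1 ptab (nat_lit 16) ([] :: ws)) (nat_lit 11) bs :=
  pm_words pts (inj_finPt 306936) rfl (by decide +kernel) (by decide +kernel) (fun _ h => eq_one_of_base fun L hL => by
    obtain ⟨k, hk, e⟩ := anyLt_iff.1 (List.all_eq_true.1 (by decide +kernel :
      (base.all fun L => anyLt 11 fun k => Nat.beq (get ptab.s bs k / ptab.s) L.b) = true) L hL)
    exact beq_iff.1 e ▸ h k hk) ws n

theorem mem {ws : List (List ℕ)} (h : (ws.all fun l => decide ((l.map sg).prod = 1)) = true) (j : ℕ) :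
    ((nthL ([] :: ws) j).map gam).prod⁻¹ ∈ sgn.ker :=
  nthL_all (p := fun l => (l.map gam).prod⁻¹ ∈ sgn.ker) (inv_mem (one_mem _))
    (List.forall_mem_cons.2 ⟨inv_mem (one_mem _), fun l hl => inv_mem (by
      rw [MonoidHom.mem_ker, map_list_prod, List.map_map, show sgn ∘ gam = sg from funext sgn_gam]
      exact of_decide_eq_true (List.all_eq_true.1 h l hl))⟩) j

end Cfsg.Lib.Mult.Fi24
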